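import Mathlib
import Cfsg.Agent.Lib.Helper56.Zass.DKFDefs
import Cfsg.Agent.Lib.Helper41.DicksonShapeU
import Cfsg.Agent.Lib.Helper41.DicksonRecog

/-!
# Project ZASS (S0690), sub-package [DKF-DICK]: Dickson's list for a `p'`-subgroup of `PSL₂(E)`
-/

set_option autoImplicit false

namespace Cfsg.Agent.Lib.Helper56.Zass

open Cfsg.Agent.Lib.Helper41

universe u

theorem pkgDkfDick : PkgDkfDick.{u} := by
  intro p _ E _ _ _ K hp
  classical
  haveI : Fintype E := Fintype.ofFinite E
  haveI : Fintype K := Fintype.ofFinite K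
  have hnoU : ∀ a : K, a ≠ 1 →
      ¬ IsUni (a : Matrix.ProjectiveSpecialLinearGroup (Fin 2) E) := by
    intro a ha hU
    have hpow : (a : Matrix.ProjectiveSpecialLinearGroup (Fin 2) E) ^ p = 1 := isUni_pow p hU
    have hpow' : a ^ p = 1 := Subtype.ext (by rw [Subgroup.coe_pow]; exact hpow)
    have hord : orderOf a = p := orderOf_eq_prime hpow' ha
    exact hp (hord ▸ orderOf_dvd_natCard a)
  have hshape := (dpartOf p K).shape
  unfold DPart.Shape at hshape
  rcases hshape with h | ⟨a, ha, haU, h⟩ | ⟨a, ha, haU, h⟩ | ⟨a, ha, haU, h⟩ | ⟨hc, h⟩ | ⟨hc, h⟩ |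
    ⟨hc, h⟩ | ⟨a, b, e, ha, haU, -⟩
  · -- trivial group
    left
    haveI : Subsingleton K := Fintype.card_le_one_iff_subsingleton.mp (le_of_eq h)
    intro x y
    rw [Subsingleton.elim x y]
  · -- cyclic
    left
    have hle : K ≤ torusOf (a : Matrix.ProjectiveSpecialLinearGroup (Fin 2) E) := by
      have h' : hTorus K a = ⊤ := h
      unfold hTorus at h'
      exact Subgroup.subgroupOf_eq_top.mp h'
    have hcyc := recog_cyclic p K (coe_ne_one ha) haU hle
    haveI := hcyc.1
    intro x y
    exact (IsCyclic.commGroup (α := K)).mul_comm x y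
  · -- dihedral: the torus has index 2
    right; left
    refine ⟨hTorus K a, ?_⟩
    have h' : 2 * Nat.card (hTorus K a) = Nat.card K := by
      rw [Nat.card_eq_fintype_card (α := K)]
      exact h
    have h1 := Subgroup.card_mul_index (hTorus K a)
    have hpos : 0 < Nat.card (hTorus K a) := Nat.card_pos
    rw [← h', mul_comm 2] at h1
    exact Nat.eq_of_mul_eq_mul_left hpos h1
  · exact absurd haU (hnoU a ha)
  · -- A4
    right; right; left
    exact recog_A4 K (by rw [Nat.card_eq_fintype_card]; exact hc) h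
  · -- S4
    right; left
    obtain ⟨e⟩ := recog_S4 K (by rw [Nat.card_eq_fintype_card]; exact hc) h
    refine ⟨(alternatingGroup (Fin 4)).comap e.toMonoidHom, ?_⟩
    rw [Subgroup.index_comap_of_surjective _ e.surjective]
    exact alternatingGroup.index_eq_two
  · -- A5
    right; right; right
    haveI := h
    exact Cfsg.Agent.S0494.result (by rw [Nat.card_eq_fintype_card]; exact hc)
  · exact absurd haU (hnoU a ha)

end Cfsg.Agent.Lib.Helper56.Zass
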